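import Cfsg.Agent.SubMax.Trans
import Cfsg.Agent.GeoPrime.Proper
import Cfsg.Agent.GeoLib.Subfield
import Cfsg.Agent.SLn.Basic

/-!
Subfield subgroups of special linear groups are maximal.
-/

set_option autoImplicit false

namespace CfsgLib.SubMax

open Matrix

variable {n : ℕ} {F : Type*} [Field F]

theorem exists_gl_tv (x φ : Fin n → F) (h : φ ⬝ᵥ x = 0) :
    ∃ g : GL (Fin n) F, (g : Matrix (Fin n) (Fin n) F) = 1 + vecMulVec x φ ∧
      g ∈ Cfsg.Geo.specialLinear (Fin n) F := by
  have hdet : (1 + vecMulVec x φ).det = 1 := by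
    rw [vecMulVec_eq Unit, det_one_add_replicateCol_mul_replicateRow, h, add_zero]
  refine ⟨GeneralLinearGroup.mkOfDetNeZero _ (by rw [hdet]; exact one_ne_zero), rfl, ?_⟩
  rw [Cfsg.Geo.specialLinear, MonoidHom.mem_ker]
  exact Units.ext hdet

theorem subfield_maximal [Fintype F] (hn : 5 ≤ n) (F₀ : Subfield F) (r : ℕ) (hr : r.Prime)
    (hcard : Fintype.card F = Nat.card F₀ ^ r) (P : GL (Fin n) F) :
    Cfsg.Geo.IsMaximalIn (Cfsg.Geo.specialLinear (Fin n) F)
      (Cfsg.Geo.subfieldSubgroup F₀ P ⊓ Cfsg.Geo.specialLinear (Fin n) F) := by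
  classical
  have hq2 : 2 ≤ Nat.card F₀ := Finite.one_lt_card
  have hne : F₀ ≠ ⊤ := by
    intro h
    have h1 : Nat.card F₀ = Fintype.card F := by
      rw [h, ← Nat.card_eq_fintype_card]
      exact Nat.card_congr Subfield.topEquiv.toEquiv
    rw [hcard] at h1
    have := Nat.pow_right_injective hq2 (show Nat.card F₀ ^ 1 = Nat.card F₀ ^ r by rw [pow_one]; exact h1)
    exact hr.ne_one this.symm
  refine ⟨lt_of_le_not_ge inf_le_right fun hle =>
    CfsgLib.GeoPrime.sl_not_le_subfieldSubgroup (by omega) hne P (hle.trans inf_le_left), fun M hGM hMS => ?_⟩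
  set H := M.comap (MulAut.conj P).toMonoidHom with hH
  have hmemH : ∀ g, g ∈ H ↔ P * g * P⁻¹ ∈ M := fun g => by simp [hH]
  have hrat : ∀ x φ : Fin n → F, Rt F₀ x → Rt F₀ φ → φ ⬝ᵥ x = 0 → Mem H x φ := by
    intro x φ hx hφ h
    obtain ⟨g, hg, hgS⟩ := exists_gl_tv x φ h
    refine ⟨h, g, (hmemH g).2 (hGM ⟨?_, ?_⟩), hg⟩
    · refine CfsgLib.GeoSubfield.mem_subfield (one_ne_zero (α := F)) fun i => ?_
      intro j
      rw [one_smul, mulVec_mulVec, mulVec_mulVec, ← Units.val_mul, ← Units.val_mul,
        show P⁻¹ * (P * g * P⁻¹) * P = g by group, hg, mulVec_tv]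
      simp only [Pi.add_apply, Pi.smul_apply, smul_eq_mul, dotProduct_single, mul_one]
      exact add_mem (rt_single i j) (mul_mem (hφ i) (hx j))
    · exact (MonoidHom.normal_ker _).conj_mem g hgS P
  -- the coefficients of a root group
  have hmove : ∀ (i j : Fin n) (a : F), i ≠ j → Mem H (a • Pi.single i 1) (Pi.single j 1) →
      ∀ k l, k ≠ l → Mem H (a • Pi.single k 1) (Pi.single l 1) := by
    have hR : ∀ i j : Fin n, i ≠ j → Mem H (Pi.single i 1) (Pi.single j 1) := fun i j hij =>
      hrat _ _ (rt_single i) (rt_single j) (by simp [hij.symm])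
    have right : ∀ (i j k : Fin n) (a : F), i ≠ k → Mem H (a • Pi.single i 1) (Pi.single j 1) →
        Mem H (a • Pi.single i 1) (Pi.single k 1) := by
      intro i j k a hik h
      rcases eq_or_ne j k with rfl | hjk
      · exact h
      have := comm_mem h (hR j k hjk) (by simp [hik.symm])
      simpa using this
    have left : ∀ (i j k : Fin n) (a : F), k ≠ j → Mem H (a • Pi.single i 1) (Pi.single j 1) →
        Mem H (a • Pi.single k 1) (Pi.single j 1) := by
      intro i j k a hkj h
      rcases eq_or_ne k i with rfl | hki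
      · exact h
      have := comm_mem (hR k i hki) h (by simp [hkj.symm])
      simpa using this
    intro i j a _ h k l hkl
    obtain ⟨m, hmi, hmk, -⟩ := exists_avoid hn i k k
    exact right k m l a hkl (left i m k a hmk.symm (right i j m a hmi.symm h))
  let A : Subring F :=
    { carrier := {a | ∀ i j : Fin n, i ≠ j → Mem H (a • Pi.single i 1) (Pi.single j 1)}
      one_mem' := fun i j hij => by
        rw [one_smul]
        exact hrat _ _ (rt_single i) (rt_single j) (by simp [hij.symm])
      zero_mem' := fun i j hij => by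
        rw [zero_smul]
        exact hrat _ _ (fun _ => zero_mem _) (rt_single j) (by simp)
      add_mem' := fun {a b} ha hb i j hij => by
        obtain ⟨h0, g, hg, eg⟩ := ha i j hij
        obtain ⟨h0', g', hg', eg'⟩ := hb i j hij
        refine ⟨by simp [hij.symm], g * g', mul_mem hg hg', ?_⟩
        rw [Units.val_mul, eg, eg', add_mul, mul_add, mul_add, one_mul, mul_one, one_mul,
          vecMulVec_mul_vecMulVec, h0', zero_smul, vecMulVec_zero, add_zero, add_smul, add_vecMulVec]
        abel
      neg_mem' := fun {a} ha i j hij => by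
        obtain ⟨h0, g, hg, eg⟩ := ha i j hij
        refine ⟨by simp [hij.symm], g⁻¹, inv_mem hg, ?_⟩
        rw [mem_inv h0 eg, neg_smul, neg_vecMulVec, sub_eq_add_neg]
      mul_mem' := fun {a b} ha hb i j hij => by
        obtain ⟨k, hki, hkj, -⟩ := exists_avoid hn i j j
        have := comm_mem (ha i k hki.symm) (hb k j hkj) (by simp [hij.symm])
        simpa [smul_smul, mul_comm] using this }
  have hA0 : ∀ a ∈ F₀, a ∈ A := fun a ha i j hij =>
    hrat _ _ (rt_smul ha (rt_single i)) (rt_single j) (by simp [hij.symm])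
  have hprime : ∀ R : Subring F, (∀ a ∈ F₀, a ∈ R) → R = ⊤ ∨ ∀ a ∈ R, a ∈ F₀ := by
    intro R hR
    by_contra hno
    push Not at hno
    obtain ⟨hR1, x, hxR, hxF⟩ := hno
    haveI : Finite R := Subtype.finite
    let K : Subfield F :=
      { R with
        inv_mem' := fun y hy => by
          by_cases hy0 : y = 0
          · subst hy0; rw [_root_.inv_zero]; exact R.zero_mem
          · have h1 := FiniteField.pow_card_sub_one_eq_one y hy0
            have h2 : y⁻¹ = y ^ (Fintype.card F - 1 - 1) := by
              refine inv_eq_of_mul_eq_one_right ?_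
              have := Fintype.one_lt_card (α := F)
              rw [← pow_succ', show Fintype.card F - 1 - 1 + 1 = Fintype.card F - 1 by omega, h1]
            rw [h2]
            exact (pow_mem (show y ∈ R from hy) _ : y ^ _ ∈ R) }
    have hle : F₀ ≤ K := hR
    letI : Algebra F₀ K := (Subfield.inclusion hle).toAlgebra
    haveI : Fintype K := Fintype.ofFinite K
    haveI : Fintype F₀ := Fintype.ofFinite F₀
    have e1 : Nat.card K = Nat.card F₀ ^ Module.finrank F₀ K := by
      rw [Nat.card_eq_fintype_card, Nat.card_eq_fintype_card]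
      exact Module.card_eq_pow_finrank (K := F₀) (V := K)
    have e2 : Fintype.card F = Nat.card K ^ Module.finrank K F := by
      rw [Nat.card_eq_fintype_card]
      exact Module.card_eq_pow_finrank (K := K) (V := F)
    rw [e1, ← pow_mul, hcard] at e2
    have e3 := Nat.pow_right_injective hq2 e2
    rcases (Nat.Prime.eq_one_or_self_of_dvd hr _ (Dvd.intro _ e3.symm)) with he | he
    · refine hxF ?_
      have hset : (F₀ : Set F) = (K : Set F) := Set.eq_of_subset_of_ncard_le hle (by
        rw [← Nat.card_coe_set_eq, ← Nat.card_coe_set_eq]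
        exact le_of_eq (show Nat.card K = Nat.card F₀ by rw [e1, he, pow_one]))
      show x ∈ (F₀ : Set F)
      rw [hset]; exact hxR
    · refine hR1 (eq_top_iff.2 fun y _ => ?_)
      have hset : (K : Set F) = Set.univ := Set.eq_of_subset_of_ncard_le (Set.subset_univ _) (by
        rw [Set.ncard_univ, ← Nat.card_coe_set_eq]
        exact le_of_eq (show Nat.card F = Nat.card K by rw [e1, he, Nat.card_eq_fintype_card, hcard]))
      show y ∈ (K : Set F)
      rw [hset]; trivial
  rcases hprime A hA0 with hA | hA
  · -- everything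
    refine Or.inr (le_antisymm hMS fun g hg => ?_)
    haveI : Nontrivial (Fin n) := Fin.nontrivial_iff_two_le.2 (by omega)
    let T : Subgroup (SpecialLinearGroup (Fin n) F) := H.comap Matrix.SpecialLinearGroup.toGL
    have hT : T = ⊤ := CfsgLib.SLn.eq_top_of_transvection T fun i j hij c => by
      obtain ⟨-, k, hk, ek⟩ := (show c ∈ A from hA ▸ Subring.mem_top c) i j hij
      show Matrix.SpecialLinearGroup.toGL _ ∈ H
      convert hk using 1
      refine Units.ext ?_
      rw [ek]
      show (Matrix.SpecialLinearGroup.transvection hij c).1 = _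
      rw [Matrix.SpecialLinearGroup.transvection_coe]
      congr 1
      ext p q
      simp [Matrix.single_apply, vecMulVec_apply, Pi.single_apply]
      by_cases hp : p = i <;> by_cases hq : q = j <;>
        simp [hp, hq, Ne.symm, show ¬p = i → ¬i = p from fun h e => h e.symm, show ¬q = j → ¬j = q from fun h e => h e.symm]
    have hg' : P⁻¹ * g * P ∈ Cfsg.Geo.specialLinear (Fin n) F := by
      have h := (MonoidHom.normal_ker (Matrix.GeneralLinearGroup.det : GL (Fin n) F →* Fˣ)).conj_mem g hg P⁻¹
      rwa [inv_inv] at h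
    have hd : (((P⁻¹ * g * P : GL (Fin n) F)) : Matrix (Fin n) (Fin n) F).det = 1 := by
      rw [Cfsg.Geo.specialLinear, MonoidHom.mem_ker] at hg'
      exact congrArg Units.val hg'
    let sg : SpecialLinearGroup (Fin n) F := ⟨_, hd⟩
    have h1 : sg ∈ T := hT ▸ Subgroup.mem_top _
    have h2 : P⁻¹ * g * P ∈ H := by
      convert (Subgroup.mem_comap.1 h1) using 1
      exact Units.ext rfl
    simpa [mul_assoc] using (hmemH _).1 h2
  · -- inside the subfield group
    have S : Setting H F₀ :=
      { big := hn, rat := hrat, small := fun i j a hij h => hA a fun k l hkl => hmove i j a hij h k l hkl,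
        prime := hprime }
    refine Or.inl (le_antisymm (le_inf (fun g' hg' => ?_) hMS) hGM)
    set g := P⁻¹ * g' * P with hg
    have hgH : g ∈ H := (hmemH g).2 (by simpa [hg, mul_assoc] using hg')
    set G : Matrix (Fin n) (Fin n) F := (g : Matrix (Fin n) (Fin n) F) with hG
    set G' : Matrix (Fin n) (Fin n) F := ((g⁻¹ : GL (Fin n) F) : Matrix (Fin n) (Fin n) F) with hG'
    have hent : ∀ i j a b, i ≠ j → G a i * G' j b ∈ F₀ := by
      intro i j a b hij
      obtain ⟨-, t, ht, et⟩ := hrat _ _ (rt_single (F₀ := F₀) i) (rt_single j) (by simp [hij.symm])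
      have hm : Mem H (G *ᵥ Pi.single i 1) ((Pi.single j 1 : Fin n → F) ᵥ* G') := by
        refine ⟨?_, g * t * g⁻¹, mul_mem (mul_mem hgH ht) (inv_mem hgH), ?_⟩
        · rw [← dotProduct_mulVec, mulVec_mulVec, hG', hG, ← Units.val_mul, inv_mul_cancel, Units.val_one,
            one_mulVec]
          simp [hij.symm]
        · rw [Units.val_mul, Units.val_mul, et, mul_add, mul_one, add_mul, mul_vecMulVec, vecMulVec_mul,
            ← hG, ← hG', hG, hG', ← Units.val_mul, mul_inv_cancel, Units.val_one]
      simpa using entries_rat S hm a b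
    have hrow : ∀ j, ∃ b, G' j b ≠ 0 := by
      intro j
      by_contra hall
      push Not at hall
      have e : (G' * G) j j = 1 := by rw [hG, hG', ← Units.val_mul, inv_mul_cancel]; simp
      rw [Matrix.mul_apply] at e
      simp [hall] at e
    have hcol : ∀ i, ∃ a, G a i ≠ 0 := by
      intro i
      by_contra hall
      push Not at hall
      have e : (G' * G) i i = 1 := by rw [hG, hG', ← Units.val_mul, inv_mul_cancel]; simp
      rw [Matrix.mul_apply] at e
      simp [hall] at e
    let j : Fin n := ⟨0, by omega⟩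
    obtain ⟨j', hj', -, -⟩ := exists_avoid hn j j j
    obtain ⟨i₀, hi₀, hi₀', -⟩ := exists_avoid hn j j' j'
    obtain ⟨b, hb⟩ := hrow j
    obtain ⟨b', hb'⟩ := hrow j'
    obtain ⟨a₀, ha₀⟩ := hcol i₀
    have hall : ∀ a i, G' j b * G a i ∈ F₀ := by
      intro a i
      rcases eq_or_ne i j with rfl | hij
      · have h1 := hent j j' a b' hj'.symm
        have h2 := hent i₀ j a₀ b hi₀
        have h3 := hent i₀ j' a₀ b' hi₀'
        have := div_mem (mul_mem h1 h2) h3
        rwa [show G a j * G' j' b' * (G a₀ i₀ * G' j b) / (G a₀ i₀ * G' j' b') = G' j b * G a j by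
          field_simp] at this
      · rw [mul_comm]; exact hent i j a b hij
    refine CfsgLib.GeoSubfield.mem_subfield hb fun i => ?_
    intro a
    rw [mulVec_smul, Pi.smul_apply, smul_eq_mul, mulVec_mulVec, mulVec_mulVec, ← Units.val_mul,
      ← Units.val_mul, show P⁻¹ * g' * P = g from hg.symm, mulVec_single_one]
    exact hall a i

end CfsgLib.SubMax
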