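import Mathlib
import Cfsg.Agent.FpfRankTwo.Core

/-!
A finite two-dimensional linear group in characteristic `p` with a large unipotent part and an element moving
its fixed line contains a non-unipotent element fixing that line.
-/

set_option autoImplicit false

namespace CfsgLib.SubMax

open Matrix

variable {J : Type*} [Group J] [Finite J] {F : Type*} [Field F]

theorem exists_torus {p : ℕ} [Fact p.Prime] [CharP F p] (f : J →* Matrix (Fin 2) (Fin 2) F)
    (hinj : Function.Injective f) (hdet : ∀ g, (f g).det = 1)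
    (hcard : p ^ 2 ≤ Nat.card {g : J // f g 1 0 = 0 ∧ f g 0 0 = 1})
    (hy : ∃ y, f y 1 0 ≠ 0) : ∃ d, f d 1 0 = 0 ∧ f d 0 0 ≠ 1 := by
  classical
  by_contra hno
  push Not at hno
  have hd : ∀ g, f g 0 0 * f g 1 1 - f g 0 1 * f g 1 0 = 1 := fun g => by
    rw [← Matrix.det_fin_two]; exact hdet g
  have h11 : ∀ g, f g 1 0 = 0 → f g 1 1 = 1 := fun g h => by
    have := hd g
    rw [h, hno g h] at this
    linear_combination this
  have h10 : ∀ g h, f g 1 0 = 0 → f h 1 0 = 0 → f (g * h) 1 0 = 0 := fun g h hg hh => by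
    simp [map_mul, Matrix.mul_apply, Fin.sum_univ_two, hg, hh]
  have hup : ∀ g, f g 1 0 = 0 → f g = !![1, f g 0 1; 0, 1] := fun g h => by
    ext i j
    fin_cases i <;> fin_cases j <;> simp [h, hno g h, h11 g h]
  let T : Subgroup J :=
    { carrier := {g | f g 1 0 = 0}
      one_mem' := by simp
      mul_mem' := fun {g h} hg hh => h10 g h hg hh
      inv_mem' := fun {g} hg => by
        have e : g⁻¹ = g ^ (orderOf g - 1) := by
          rw [inv_eq_iff_mul_eq_one, ← pow_succ', Nat.sub_add_cancel (orderOf_pos g), pow_orderOf_eq_one]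
        show f g⁻¹ 1 0 = 0
        rw [e]
        generalize orderOf g - 1 = k
        induction k with
        | zero => simp
        | succ k ih => rw [pow_succ]; exact h10 _ _ ih hg }
  have hmemT : ∀ g, g ∈ T ↔ f g 1 0 = 0 := fun g => Iff.rfl
  have hadd : ∀ g h, g ∈ T → h ∈ T → f (g * h) 0 1 = f g 0 1 + f h 0 1 := fun g h hg hh => by
    simp [map_mul, Matrix.mul_apply, Fin.sum_univ_two, hno g hg, h11 h hh, add_comm]
  have hext : ∀ g h, g ∈ T → h ∈ T → f g 0 1 = f h 0 1 → g = h := fun g h hg hh e =>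
    hinj (by rw [hup g hg, hup h hh, e])
  have hab : ∀ g ∈ T, ∀ h ∈ T, g * h = h * g := fun g hg h hh =>
    hext _ _ (mul_mem hg hh) (mul_mem hh hg) (by rw [hadd g h hg hh, hadd h g hh hg, add_comm])
  have hexp : ∀ g ∈ T, g ^ p = 1 := fun g hg => by
    have hk : ∀ k : ℕ, f (g ^ k) 0 1 = (k : F) * f g 0 1 := by
      intro k
      induction k with
      | zero => simp
      | succ k ih => rw [pow_succ, hadd _ _ (pow_mem hg k) hg, ih]; push_cast; ring
    refine hext _ _ (pow_mem hg p) (one_mem T) ?_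
    rw [hk, CharP.cast_eq_zero F p]
    simp
  have hTp : IsPGroup p T := fun ⟨g, hg⟩ => ⟨1, Subtype.ext (by simpa using hexp g hg)⟩
  have hcardT : p ^ 2 ≤ Nat.card T := hcard.trans
    (Nat.card_le_card_of_injective (fun g => (⟨g.1, g.2.1⟩ : T))
      fun a b h => Subtype.ext (congrArg (fun z : T => (z : J)) h))
  obtain ⟨t₀, ht₀, ht₁⟩ : ∃ t ∈ T, t ≠ 1 := by
    by_contra h
    push Not at h
    have h' : T = ⊥ := (Subgroup.eq_bot_iff_forall _).2 h
    rw [h', Subgroup.card_bot] at hcardT
    have := Nat.pow_le_pow_left (Fact.out : p.Prime).two_le 2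
    omega
  have hnorm : ∀ g, g * t₀ * g⁻¹ ∈ T → g ∈ T := by
    intro g hg
    obtain ⟨m, hm⟩ : ∃ m, m = g * t₀ * g⁻¹ := ⟨_, rfl⟩
    rw [← hm] at hg
    have e : f m * f g = f g * f t₀ := by
      rw [← map_mul, hm, inv_mul_cancel_right, map_mul]
    rw [hup _ hg, hup t₀ ht₀] at e
    have h00 := congrFun (congrFun e 0) 0
    simp [Matrix.mul_apply, Fin.sum_univ_two] at h00
    by_contra hgn
    have h01 : f m 0 1 = 0 := by
      rcases h00 with h | h
      · exact h
      · exact absurd h hgn
    have hm1 : m = 1 := hext _ _ hg (one_mem T) (by rw [h01]; simp)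
    exact ht₁ (conj_eq_one_iff.1 (hm.symm.trans hm1))
  obtain ⟨P, hTP⟩ := hTp.exists_le_sylow
  have hPT : (P : Subgroup J) = T := by
    refine le_antisymm ?_ hTP
    by_contra hlt
    have hne : T.subgroupOf P ≠ ⊤ := fun h => hlt (Subgroup.subgroupOf_eq_top.mp h)
    haveI : Group.IsNilpotent P := P.isPGroup'.isNilpotent
    obtain ⟨⟨x, hxP⟩, hxN, hxT⟩ :=
      SetLike.exists_of_lt (Group.normalizerCondition_of_isNilpotent (G := P) _ (lt_top_iff_ne_top.mpr hne))
    exact hxT (hnorm x ((Subgroup.mem_normalizer_iff.1 hxN ⟨t₀, hTP ht₀⟩).1 ht₀))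
  have hNC : Subgroup.normalizer ((P : Subgroup J) : Set J) ≤ Subgroup.centralizer ((P : Subgroup J) : Set J) := by
    intro g hg
    rw [hPT] at hg ⊢
    have hgT : g ∈ T := hnorm g ((Subgroup.mem_normalizer_iff.1 hg t₀).1 ht₀)
    exact Subgroup.mem_centralizer_iff.2 fun x hx => hab x hx g hgT
  set K := (MonoidHom.transferSylow P hNC).ker with hK
  have hcompl := MonoidHom.ker_transferSylow_isComplement' P hNC
  have hKP : ∀ k ∈ K, k ∈ T → k = 1 := fun k hk hkT =>
    Subgroup.disjoint_def.1 hcompl.disjoint hk (hPT.symm ▸ hkT)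
  have hp2 : p ^ 2 ∣ Nat.card T := by
    obtain ⟨k, hk⟩ := IsPGroup.iff_card.1 hTp
    rw [hk] at hcardT ⊢
    exact pow_dvd_pow p ((Nat.pow_le_pow_iff_right (Fact.out : p.Prime).one_lt).1 hcardT)
  obtain ⟨A₀, hA₀⟩ := Sylow.exists_subgroup_card_pow_prime (G := T) p (n := 2) hp2
  set A := A₀.map T.subtype with hAdef
  have hAT : A ≤ T := Subgroup.map_subtype_le A₀
  have hcent : ∀ c ∈ A, c ≠ 1 → ∀ x ∈ K, Commute c x → x = 1 := by
    intro c hc hc1 x hx hcx
    refine hKP x hx ((hmemT x).2 ?_)
    have e : f c * f x = f x * f c := by rw [← map_mul, ← map_mul, hcx.eq]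
    rw [hup c (hAT hc)] at e
    have h00 := congrFun (congrFun e 0) 0
    simp [Matrix.mul_apply, Fin.sum_univ_two] at h00
    rcases h00 with h | h
    · exact absurd (hext c 1 (hAT hc) (one_mem T) (by rw [h]; simp)) hc1
    · exact h
  have S : CfsgLib.FpfRankTwo.Setup p A K :=
    { hp := Fact.out
      comm := fun a ha b hb => hab a (hAT ha) b (hAT hb)
      expA := fun a ha => hexp a (hAT ha)
      cardA := by rw [hAdef, Subgroup.card_map_of_injective T.subtype_injective, hA₀]
      hAK := by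
        haveI : K.Normal := MonoidHom.normal_ker _
        rw [Subgroup.normalizer_eq_top K]; exact le_top
      hcop := by
        rw [hAdef, Subgroup.card_map_of_injective T.subtype_injective, hA₀]
        exact Nat.Coprime.pow_left 2 ((Fact.out : p.Prime).coprime_iff_not_dvd.2
          (MonoidHom.not_dvd_card_ker_transferSylow P hNC))
      fix := fun x hx hall => by
        obtain ⟨c, hc, hc1⟩ : ∃ c ∈ A, c ≠ 1 := by
          by_contra h
          push Not at h
          have h' : A = ⊥ := (Subgroup.eq_bot_iff_forall _).2 h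
          have h2 : Nat.card A = p ^ 2 := by
            rw [hAdef, Subgroup.card_map_of_injective T.subtype_injective, hA₀]
          rw [h', Subgroup.card_bot] at h2
          have := Nat.pow_le_pow_left (Fact.out : p.Prime).two_le 2
          omega
        exact hcent c hc hc1 x hx (hall c hc) }
  have hKbot : K = ⊥ := le_bot_iff.1 (S.gen le_rfl S.hAK fun c hc hc1 x hx hcx =>
    Subgroup.mem_bot.2 (hcent c hc hc1 x hx hcx))
  have htop : T = ⊤ := by
    rw [← hPT]
    have h := hcompl
    rw [← hK, hKbot, Subgroup.isComplement'_bot_left] at h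
    exact h
  obtain ⟨y, hy⟩ := hy
  exact hy ((hmemT y).1 (htop ▸ Subgroup.mem_top y))

end CfsgLib.SubMax
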