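import Mathlib
import Cfsg.Agent.SubMax.RankOne

/-!
Transvections of a group containing the special linear group over a subfield.
-/

set_option autoImplicit false

namespace CfsgLib.SubMax

open Matrix

variable {n : ℕ} {F : Type*} [Field F]

local notation "V" => (Fin n → F)
local notation "E" => fun i : Fin n => (Pi.single i (1 : F) : Fin n → F)

/-- The transvection with centre `x` and axis `φ` lies in `H`. -/
def Mem (H : Subgroup (GL (Fin n) F)) (x φ : Fin n → F) : Prop :=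
  φ ⬝ᵥ x = 0 ∧ ∃ g ∈ H, (g : Matrix (Fin n) (Fin n) F) = 1 + Matrix.vecMulVec x φ

/-- All entries lie in the subfield. -/
def Rt (F₀ : Subfield F) (x : Fin n → F) : Prop := ∀ i, x i ∈ F₀

/-- The transvections of `H`. -/
structure Setting (H : Subgroup (GL (Fin n) F)) (F₀ : Subfield F) : Prop where
  big : 5 ≤ n
  rat : ∀ x φ : Fin n → F, Rt F₀ x → Rt F₀ φ → φ ⬝ᵥ x = 0 → Mem H x φ
  small : ∀ (i j : Fin n) (a : F), i ≠ j → Mem H (a • Pi.single i 1) (Pi.single j 1) → a ∈ F₀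
  prime : ∀ R : Subring F, (∀ a ∈ F₀, a ∈ R) → R = ⊤ ∨ ∀ a ∈ R, a ∈ F₀

variable {H : Subgroup (GL (Fin n) F)} {F₀ : Subfield F}

theorem mem_inv {x φ : V} (h : φ ⬝ᵥ x = 0) {g : GL (Fin n) F}
    (hg : (g : Matrix (Fin n) (Fin n) F) = 1 + vecMulVec x φ) :
    ((g⁻¹ : GL (Fin n) F) : Matrix (Fin n) (Fin n) F) = 1 - vecMulVec x φ := by
  have e : (g : Matrix (Fin n) (Fin n) F) * (1 - vecMulVec x φ) = 1 := by
    rw [hg, add_mul, one_mul, mul_sub, mul_one, vecMulVec_mul_vecMulVec, h, zero_smul, vecMulVec_zero]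
    abel
  exact left_inv_eq_right_inv (by rw [← Units.val_mul, inv_mul_cancel, Units.val_one]) e

theorem comm_mem {x φ u χ : V} (h1 : Mem H x φ) (h2 : Mem H u χ) (h : χ ⬝ᵥ x = 0) :
    Mem H ((φ ⬝ᵥ u) • x) χ := by
  obtain ⟨hx, g, hg, eg⟩ := h1
  obtain ⟨hu, k, hk, ek⟩ := h2
  refine ⟨by rw [dotProduct_smul, h, smul_zero], g * k * g⁻¹ * k⁻¹,
    mul_mem (mul_mem (mul_mem hg hk) (inv_mem hg)) (inv_mem hk), ?_⟩
  rw [Units.val_mul, Units.val_mul, Units.val_mul, mem_inv hx eg, mem_inv hu ek, eg, ek]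
  set M := vecMulVec x φ with hM
  set N := vecMulVec u χ with hN
  have hMM : M * M = 0 := by rw [hM, vecMulVec_mul_vecMulVec, hx, zero_smul, vecMulVec_zero]
  have hNN : N * N = 0 := by rw [hN, vecMulVec_mul_vecMulVec, hu, zero_smul, vecMulVec_zero]
  have hNM : N * M = 0 := by rw [hN, hM, vecMulVec_mul_vecMulVec, h, zero_smul, vecMulVec_zero]
  have hMN : vecMulVec ((φ ⬝ᵥ u) • x) χ = M * N := by
    rw [hN, hM, vecMulVec_mul_vecMulVec, smul_vecMulVec, vecMulVec_smul]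
  rw [hMN]
  have a1 : M * N * M = 0 := by rw [mul_assoc, hNM, mul_zero]
  have a2 : M * N * N = 0 := by rw [mul_assoc, hNN, mul_zero]
  simp only [mul_sub, sub_mul, mul_add, add_mul, mul_one, one_mul, hMM, hNN, hNM, a1, a2,
    sub_zero, add_zero, zero_mul, zero_add, zero_sub]
  abel

theorem mem_congr {x φ x' φ' : V} (e : vecMulVec x φ = vecMulVec x' φ') (h' : φ' ⬝ᵥ x' = 0)
    (h : Mem H x φ) : Mem H x' φ' := by
  obtain ⟨-, g, hg, eg⟩ := h
  exact ⟨h', g, hg, eg.trans (by rw [e])⟩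

theorem mem_smul_left {x φ : V} {c : F} (h : Mem H x (c • φ)) (hc : c ≠ 0) : Mem H (c • x) φ :=
  mem_congr (by rw [vecMulVec_smul, smul_vecMulVec]) (by
    have := h.1
    rw [smul_dotProduct, smul_eq_mul] at this
    rw [dotProduct_smul, (mul_eq_zero.1 this).resolve_left hc, smul_zero]) h

theorem mem_smul_right {x φ : V} {c : F} (h : Mem H (c • x) φ) (hc : c ≠ 0) : Mem H x (c • φ) :=
  mem_congr (by rw [vecMulVec_smul, smul_vecMulVec]) (by
    have := h.1
    rw [dotProduct_smul, smul_eq_mul] at this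
    rw [smul_dotProduct, (mul_eq_zero.1 this).resolve_left hc, smul_zero]) h

theorem rt_single (i : Fin n) : Rt F₀ (Pi.single i (1 : F)) := fun j => by
  rcases eq_or_ne j i with rfl | h <;> simp [*, one_mem, zero_mem]

theorem rt_smul {c : F} (hc : c ∈ F₀) {x : V} (hx : Rt F₀ x) : Rt F₀ (c • x) := fun j => mul_mem hc (hx j)

theorem rt_sub {x y : V} (hx : Rt F₀ x) (hy : Rt F₀ y) : Rt F₀ (x - y) := fun j => sub_mem (hx j) (hy j)

theorem rt_add {x y : V} (hx : Rt F₀ x) (hy : Rt F₀ y) : Rt F₀ (x + y) := fun j => add_mem (hx j) (hy j)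

theorem exists_avoid {n : ℕ} (hn : 5 ≤ n) (i j k : Fin n) : ∃ l, l ≠ i ∧ l ≠ j ∧ l ≠ k := by
  have hlt : ({i, j, k} : Finset (Fin n)).card < (Finset.univ : Finset (Fin n)).card := by
    have := Finset.card_le_three (a := i) (b := j) (c := k)
    simp only [Finset.card_univ, Fintype.card_fin]
    omega
  obtain ⟨l, -, hl⟩ := Finset.exists_mem_notMem_of_card_lt_card hlt
  simp only [Finset.mem_insert, Finset.mem_singleton, not_or] at hl
  exact ⟨l, hl⟩

variable (S : Setting H F₀)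
include S

/-- A transvection with rational axis has rational centre. -/
theorem centre_rat {x φ : V} (hφ : Rt F₀ φ) (hφ0 : φ ≠ 0) (h : Mem H x φ) : Rt F₀ x := by
  classical
  obtain ⟨i, hi⟩ := Function.ne_iff.1 hφ0
  simp only [Pi.zero_apply] at hi
  have key : ∀ l, l ≠ i → x l ∈ F₀ := by
    intro l hl
    obtain ⟨k, hki, hkl, -⟩ := exists_avoid S.big i l l
    set e : V := Pi.single k 1 - (φ k / φ i) • Pi.single i 1 with he
    have heR : Rt F₀ e := rt_sub (rt_single k) (rt_smul (div_mem (hφ k) (hφ i)) (rt_single i))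
    have hφe : φ ⬝ᵥ e = 0 := by simp [he, dotProduct_sub, div_mul_cancel₀ _ hi]
    have hle : (Pi.single l 1 : V) ⬝ᵥ e = 0 := by simp [he, hkl.symm, hl]
    have h1 := comm_mem (S.rat e _ heR (rt_single l) hle) h hφe
    rw [single_dotProduct, one_mul] at h1
    obtain ⟨p, hpi, hpk, -⟩ := exists_avoid S.big i k k
    set u : V := (φ i)⁻¹ • Pi.single i 1 with hu
    have h2 := comm_mem h1 (S.rat u _ (rt_smul (inv_mem (hφ i)) (rt_single i)) (rt_single p)
      (by simp [hu, hpi])) (by simp [he, hpk, hpi])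
    rw [show φ ⬝ᵥ u = 1 by simp [hu, hi], one_smul] at h2
    obtain ⟨o, hok, hop, -⟩ := exists_avoid S.big k p p
    have h3 := comm_mem (S.rat (Pi.single o 1) _ (rt_single o) (rt_single k) (by simp [hok.symm])) h2
      (by simp [hop.symm])
    rw [show (Pi.single k 1 : V) ⬝ᵥ (x l • e) = x l by simp [he, hki]] at h3
    exact S.small o p _ hop h3
  intro l
  rcases eq_or_ne l i with rfl | hl
  · have h0 := h.1
    rw [dotProduct, ← Finset.add_sum_erase _ _ (Finset.mem_univ l)] at h0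
    have hs : ∑ m ∈ Finset.univ.erase l, φ m * x m ∈ F₀ :=
      Subfield.sum_mem _ fun m hm => mul_mem (hφ m) (key m (Finset.ne_of_mem_erase hm))
    rw [show x l = -(∑ m ∈ Finset.univ.erase l, φ m * x m) / φ l by
      rw [eq_div_iff hi]; linear_combination h0]
    exact div_mem (neg_mem hs) (hφ l)
  · exact key l hl

/-- A transvection with rational centre has rational axis. -/
theorem axis_rat {v ψ : V} (hv : Rt F₀ v) (hv0 : v ≠ 0) (h : Mem H v ψ) : Rt F₀ ψ := by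
  classical
  obtain ⟨i, hi⟩ := Function.ne_iff.1 hv0
  simp only [Pi.zero_apply] at hi
  have key : ∀ l, l ≠ i → ψ l ∈ F₀ := by
    intro l hl
    obtain ⟨k, hki, hkl, -⟩ := exists_avoid S.big i l l
    set χ : V := Pi.single k 1 - (v k / v i) • Pi.single i 1 with hχ
    have hχR : Rt F₀ χ := rt_sub (rt_single k) (rt_smul (div_mem (hv k) (hv i)) (rt_single i))
    have hχv : χ ⬝ᵥ v = 0 := by simp [hχ, sub_dotProduct, div_mul_cancel₀ _ hi]
    have h1 := comm_mem h (S.rat (Pi.single l 1) χ (rt_single l) hχR (by simp [hχ, hkl.symm, hl])) hχv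
    rw [dotProduct_single, mul_one] at h1
    obtain ⟨p, hpi, hpk, -⟩ := exists_avoid S.big i k k
    set η : V := (v i)⁻¹ • Pi.single i 1 with hη
    have h2 := comm_mem (S.rat (Pi.single p 1) η (rt_single p) (rt_smul (inv_mem (hv i)) (rt_single i))
      (by simp [hη, hpi.symm])) h1 (by simp [hχ, hpk, hpi])
    rw [show η ⬝ᵥ (ψ l • v) = ψ l by simp [hη, hi]] at h2
    obtain ⟨o, hok, hop, -⟩ := exists_avoid S.big k p p
    have h3 := comm_mem h2 (S.rat (Pi.single k 1) _ (rt_single k) (rt_single o) (by simp [hok]))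
      (by simp [hop])
    rw [show χ ⬝ᵥ (Pi.single k 1 : V) = 1 by simp [hχ, hki], one_smul] at h3
    exact S.small p o _ hop.symm h3
  intro l
  rcases eq_or_ne l i with rfl | hl
  · have h0 := h.1
    rw [dotProduct, ← Finset.add_sum_erase _ _ (Finset.mem_univ l)] at h0
    have hs : ∑ m ∈ Finset.univ.erase l, ψ m * v m ∈ F₀ :=
      Subfield.sum_mem _ fun m hm => mul_mem (key m (Finset.ne_of_mem_erase hm)) (hv m)
    rw [show ψ l = -(∑ m ∈ Finset.univ.erase l, ψ m * v m) / v l by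
      rw [eq_div_iff hi]; linear_combination h0]
    exact div_mem (neg_mem hs) (hv l)
  · exact key l hl

omit S

/-- Shift along `w` by the coefficient `φ`, along `e` by `ψ`. -/
theorem mulVec_tv (x φ y : V) : (1 + vecMulVec x φ) *ᵥ y = y + (φ ⬝ᵥ y) • x := by
  rw [add_mulVec, one_mulVec, vecMulVec_mulVec, op_smul_eq_smul]

theorem eq_tv {g : Matrix (Fin n) (Fin n) F} {x φ : V} (h : ∀ y, g *ᵥ y = y + (φ ⬝ᵥ y) • x) :
    g = 1 + vecMulVec x φ := Matrix.ext_iff_mulVec.2 fun y => (h y).trans (mulVec_tv x φ y).symm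

include S

/-- No transvection has an axis avoiding all rational vectors. -/
theorem no_generic [Fintype F] {w ψ : V} (h : Mem H w ψ) (hw : w ≠ 0)
    (hinj : ∀ v, Rt F₀ v → ψ ⬝ᵥ v = 0 → v = 0) : False := by
  classical
  obtain ⟨i, hi⟩ := Function.ne_iff.1 hw
  simp only [Pi.zero_apply] at hi
  obtain ⟨k, hki, -, -⟩ := exists_avoid S.big i i i
  obtain ⟨l, hli, hlk, -⟩ := exists_avoid S.big i k k
  obtain ⟨m, hmi, hmk, hml⟩ := exists_avoid S.big i k l
  have hψne : ∀ j, ψ j ≠ 0 := fun j hj => by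
    have := hinj (Pi.single j 1) (rt_single j) (by simp [hj])
    simpa using congrFun this j
  set φ : V := Pi.single i 1 with hφ
  have hφR : Rt F₀ φ := rt_single i
  have hφ0 : φ ≠ 0 := fun h0 => by simpa [hφ] using congrFun h0 i
  set e : V := (ψ k)⁻¹ • Pi.single k 1 with he
  set w' : V := (w i)⁻¹ • w with hw'
  have hψw : ψ ⬝ᵥ w = 0 := h.1
  have hφe : φ ⬝ᵥ e = 0 := by simp [hφ, he, hki.symm]
  have hψe : ψ ⬝ᵥ e = 1 := by simp [he, hψne k]
  have hφw : φ ⬝ᵥ w' = 1 := by simp [hφ, hw', hi]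
  have hψw' : ψ ⬝ᵥ w' = 0 := by simp [hw', hψw]
  have hφwi : φ ⬝ᵥ w = w i := by simp [hφ]
  clear_value e w'
  obtain ⟨-, y, hyH, hy⟩ := h
  set J : Subgroup (GL (Fin n) F) :=
    Subgroup.closure (insert y {g | g ∈ H ∧ ∃ v, Rt F₀ v ∧ φ ⬝ᵥ v = 0 ∧ (g : Matrix (Fin n) (Fin n) F) = 1 + vecMulVec v φ}) with hJ
  have hJH : J ≤ H := (Subgroup.closure_le _).2 (by rintro g (rfl | ⟨hg, -⟩) <;> assumption)
  let M₂ : GL (Fin n) F → Matrix (Fin 2) (Fin 2) F := fun g =>
    !![ψ ⬝ᵥ ((g : Matrix (Fin n) (Fin n) F) *ᵥ e), ψ ⬝ᵥ ((g : Matrix (Fin n) (Fin n) F) *ᵥ w');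
      φ ⬝ᵥ ((g : Matrix (Fin n) (Fin n) F) *ᵥ e), φ ⬝ᵥ ((g : Matrix (Fin n) (Fin n) F) *ᵥ w')]
  have hdec : ∀ g : GL (Fin n) F, (∀ x, φ ⬝ᵥ x = 0 → ψ ⬝ᵥ x = 0 → (g : Matrix (Fin n) (Fin n) F) *ᵥ x = x) →
      ∀ x, (g : Matrix (Fin n) (Fin n) F) *ᵥ x = x + (φ ⬝ᵥ x) • ((g : Matrix (Fin n) (Fin n) F) *ᵥ w' - w') +
        (ψ ⬝ᵥ x) • ((g : Matrix (Fin n) (Fin n) F) *ᵥ e - e) := by
    intro g hg x
    have := hg (x - (φ ⬝ᵥ x) • w' - (ψ ⬝ᵥ x) • e) (by simp [dotProduct_sub, hφe, hφw])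
      (by simp [dotProduct_sub, hψe, hψw'])
    rw [mulVec_sub, mulVec_sub, mulVec_smul, mulVec_smul] at this
    rw [sub_eq_iff_eq_add, sub_eq_iff_eq_add] at this
    rw [this, smul_sub, smul_sub]
    abel
  have hM2 : ∀ g g' : GL (Fin n) F, (∀ x, φ ⬝ᵥ x = 0 → ψ ⬝ᵥ x = 0 → (g : Matrix (Fin n) (Fin n) F) *ᵥ x = x) →
      M₂ (g * g') = M₂ g * M₂ g' := by
    intro g g' hg
    ext a b
    fin_cases a <;> fin_cases b <;>
      simp [M₂, Matrix.mul_apply, Fin.sum_univ_two, ← mulVec_mulVec] <;>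
      rw [hdec g hg] <;>
      simp [dotProduct_sub, hφe, hψe, hφw, hψw'] <;> ring
  let Gd : Subgroup (GL (Fin n) F) :=
    { carrier := {g | (∀ x, φ ⬝ᵥ x = 0 → ψ ⬝ᵥ x = 0 → (g : Matrix (Fin n) (Fin n) F) *ᵥ x = x) ∧ (M₂ g).det = 1}
      one_mem' := ⟨fun x _ _ => by simp, by simp [M₂, Matrix.det_fin_two, hφe, hψe, hφw, hψw']⟩
      mul_mem' := fun {g g'} hg hg' => by
        refine ⟨fun x h1 h2 => by rw [Units.val_mul, ← mulVec_mulVec, hg'.1 x h1 h2, hg.1 x h1 h2], ?_⟩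
        rw [hM2 g g' hg.1, det_mul, hg.2, hg'.2, one_mul]
      inv_mem' := fun {g} hg => by
        have hfix : ∀ x, φ ⬝ᵥ x = 0 → ψ ⬝ᵥ x = 0 → ((g⁻¹ : GL (Fin n) F) : Matrix (Fin n) (Fin n) F) *ᵥ x = x := by
          intro x h1 h2
          conv_lhs => rw [← hg.1 x h1 h2]
          rw [mulVec_mulVec, ← Units.val_mul, inv_mul_cancel, Units.val_one, one_mulVec]
        refine ⟨hfix, ?_⟩
        have e2 := hM2 g g⁻¹ hg.1
        have e3 := congrArg Matrix.det e2
        rw [det_mul, hg.2, one_mul, mul_inv_cancel] at e3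
        rw [← e3]
        simp [M₂, Matrix.det_fin_two, hφe, hψe, hφw, hψw'] }
  have hJG : J ≤ Gd := by
    refine (Subgroup.closure_le _).2 ?_
    rintro g (rfl | ⟨-, v, -, hv, hg⟩)
    · refine ⟨fun x _ h2 => by rw [hy, mulVec_tv, h2, zero_smul, add_zero], ?_⟩
      simp [M₂, Matrix.det_fin_two, hy, mulVec_tv, hφe, hψe, hφw, hψw', hψw]
    · refine ⟨fun x h1 _ => by rw [hg, mulVec_tv, h1, zero_smul, add_zero], ?_⟩
      simp [M₂, Matrix.det_fin_two, hg, mulVec_tv, hφe, hψe, hφw, hψw', hv]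
  have hmul : ∀ g g' : J, M₂ ((g * g' : J) : GL (Fin n) F) = M₂ g * M₂ g' := fun g g' =>
    hM2 _ _ (hJG g.2).1
  let f : J →* Matrix (Fin 2) (Fin 2) F :=
    { toFun := fun g => M₂ g
      map_one' := by
        ext a b
        fin_cases a <;> fin_cases b <;> simp [M₂, hφe, hψe, hφw, hψw']
      map_mul' := hmul }
  have hf : ∀ g : J, f g = M₂ g := fun g => rfl
  -- transvections of the generating family
  have hT : ∀ v, Rt F₀ v → φ ⬝ᵥ v = 0 → ∃ t : J, ((t : GL (Fin n) F) : Matrix (Fin n) (Fin n) F) = 1 + vecMulVec v φ := by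
    intro v hv hv'
    obtain ⟨-, t, ht, et⟩ := S.rat v φ hv hφR hv'
    exact ⟨⟨t, Subgroup.subset_closure (Or.inr ⟨ht, v, hv, hv', et⟩)⟩, et⟩
  -- upper unipotent elements
  have hupper : ∀ g : J, f g 1 0 = 0 → f g 0 0 = 1 → ∃ a, Rt F₀ a ∧ φ ⬝ᵥ a = 0 ∧
      ((g : GL (Fin n) F) : Matrix (Fin n) (Fin n) F) = 1 + vecMulVec a φ := by
    intro g h10 h00
    obtain ⟨hfix, hdet⟩ := hJG g.2
    have h11 : f g 1 1 = 1 := by
      have e1 := hdet
      rw [← hf, Matrix.det_fin_two, h10, h00] at e1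
      linear_combination e1
    set G : Matrix (Fin n) (Fin n) F := ((g : GL (Fin n) F) : Matrix (Fin n) (Fin n) F) with hG
    set k₂ : V := G *ᵥ e - e with hk₂
    have hk₂φ : φ ⬝ᵥ k₂ = 0 := by
      rw [hk₂, dotProduct_sub, hφe, sub_zero]; exact h10
    have hk₂ψ : ψ ⬝ᵥ k₂ = 0 := by
      rw [hk₂, dotProduct_sub, hψe, sub_eq_zero]; exact h00
    have hφG : ∀ x, φ ⬝ᵥ (G *ᵥ x) = φ ⬝ᵥ x := fun x => by
      have h11' : φ ⬝ᵥ (G *ᵥ w' - w') = 0 := by
        rw [dotProduct_sub, hφw, sub_eq_zero]; exact h11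
      have a1 : φ ⬝ᵥ (G *ᵥ e - e) = 0 := by rw [← hk₂]; exact hk₂φ
      rw [show G *ᵥ x = _ from hdec _ hfix x]
      simp only [← hG, dotProduct_add, dotProduct_smul, h11', a1, smul_zero, add_zero]
    set v₀ : V := Pi.single k 1 with hv₀
    have hv₀φ : φ ⬝ᵥ v₀ = 0 := by simp [hφ, hv₀, hki.symm]
    obtain ⟨t, ht⟩ := hT v₀ (rt_single k) hv₀φ
    have hc : ((g * t * g⁻¹ : J) : GL (Fin n) F) ∈ H := hJH (g * t * g⁻¹ : J).2
    have hcm : Mem H (G *ᵥ v₀) φ := by
      refine ⟨by rw [hφG, hv₀φ], _, hc, eq_tv fun x => ?_⟩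
      obtain ⟨z, rfl⟩ : ∃ z, x = G *ᵥ z := ⟨(((g⁻¹ : J) : GL (Fin n) F) : Matrix (Fin n) (Fin n) F) *ᵥ x, by
        rw [hG, mulVec_mulVec, ← Units.val_mul, Subgroup.coe_inv, mul_inv_cancel, Units.val_one, one_mulVec]⟩
      rw [mulVec_mulVec, hG, ← Units.val_mul, ← Subgroup.coe_mul, inv_mul_cancel_right, Subgroup.coe_mul,
        Units.val_mul, ← mulVec_mulVec, ht, mulVec_tv, mulVec_add, mulVec_smul, ← hG, hφG]
    have hR := centre_rat S hφR hφ0 hcm
    rw [hdec _ hfix v₀, hv₀φ, zero_smul, add_zero, ← hk₂] at hR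
    have hk0 : k₂ = 0 := by
      have h1 := rt_sub hR (rt_single (F₀ := F₀) k)
      rw [hv₀, add_sub_cancel_left] at h1
      have h2 := hinj _ h1 (by rw [dotProduct_smul, hk₂ψ, smul_zero])
      exact (smul_eq_zero.1 h2).resolve_left (by simpa using hψne k)
    have eg : G = 1 + vecMulVec (G *ᵥ w' - w') φ := eq_tv fun x => by
      rw [hdec _ hfix x, ← hk₂, hk0, smul_zero, add_zero]
    have ha : φ ⬝ᵥ (G *ᵥ w' - w') = 0 := by rw [dotProduct_sub, hφG, sub_self]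
    exact ⟨_, centre_rat S hφR hφ0 ⟨ha, _, hJH g.2, eg⟩, ha, eg⟩
  have hinjf : Function.Injective f := by
    refine (injective_iff_map_eq_one f).2 fun g hg => ?_
    obtain ⟨a, haR, hφa, eg⟩ := hupper g (by rw [hg]; simp) (by rw [hg]; simp)
    have h01 : f g 0 1 = 0 := by rw [hg]; simp
    rw [hf] at h01
    simp [M₂, eg, mulVec_tv, hφw, hψw'] at h01
    refine Subtype.ext (Units.ext ?_)
    rw [eg, hinj a haR h01]
    simp
  obtain ⟨p, hp⟩ := CharP.exists F
  haveI : Fact p.Prime := ⟨CharP.char_is_prime F p⟩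
  have hq₀ : p ≤ Nat.card F₀ := by
    have h2 : Function.Injective fun a : ZMod p => (⟨ZMod.castHom (dvd_refl p) F a, by
        rw [ZMod.castHom_apply, ZMod.cast_eq_val]; exact natCast_mem F₀ _⟩ : F₀) :=
      fun a b hab => (ZMod.castHom (dvd_refl p) F).injective (congrArg Subtype.val hab)
    simpa [Nat.card_zmod] using Nat.card_le_card_of_injective _ h2
  let vec2 : F₀ × F₀ → V := fun ab => (ab.1 : F) • Pi.single k 1 + (ab.2 : F) • Pi.single l 1
  have hv2 : ∀ ab, Rt F₀ (vec2 ab) ∧ φ ⬝ᵥ vec2 ab = 0 := fun ab =>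
    ⟨rt_add (rt_smul ab.1.2 (rt_single k)) (rt_smul ab.2.2 (rt_single l)), by simp [vec2, hφ, hki.symm, hli.symm]⟩
  have hcard : p ^ 2 ≤ Nat.card {g : J // f g 1 0 = 0 ∧ f g 0 0 = 1} := by
    choose t ht using fun ab => hT (vec2 ab) (hv2 ab).1 (hv2 ab).2
    have hprop : ∀ ab, f (t ab) 1 0 = 0 ∧ f (t ab) 0 0 = 1 := fun ab => by
      rw [hf]; simp [M₂, ht ab, mulVec_tv, hφe, hψe]
    refine le_trans ?_ (Nat.card_le_card_of_injective
      (fun ab => (⟨t ab, hprop ab⟩ : {g : J // f g 1 0 = 0 ∧ f g 0 0 = 1})) fun a b hab => ?_)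
    · rw [Nat.card_prod, pow_two]; exact Nat.mul_le_mul hq₀ hq₀
    · have e1 : (1 : Matrix (Fin n) (Fin n) F) + vecMulVec (vec2 a) φ = 1 + vecMulVec (vec2 b) φ := by
        rw [← ht a, ← ht b, show t a = t b from congrArg Subtype.val hab]
      have e2 := congrArg (fun M : Matrix (Fin n) (Fin n) F => M *ᵥ w') e1
      simp only [mulVec_tv, hφw, one_smul, add_right_inj] at e2
      have ek := congrFun e2 k
      have el := congrFun e2 l
      simp [vec2, hlk.symm] at ek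
      simp [vec2, hlk] at el
      exact Prod.ext ek el
  have hylow : ∃ z, f z 1 0 ≠ 0 := by
    refine ⟨⟨y, Subgroup.subset_closure (Or.inl rfl)⟩, ?_⟩
    rw [hf]
    simp [M₂, hy, mulVec_tv, hφe, hψe, hφwi, hi]
  obtain ⟨d, hd10, hd00⟩ := exists_torus f hinjf (fun g => (hJG g.2).2) hcard hylow
  -- the torus element
  obtain ⟨hfix, hdet⟩ := hJG d.2
  set D : Matrix (Fin n) (Fin n) F := ((d : GL (Fin n) F) : Matrix (Fin n) (Fin n) F) with hD
  set μ := f d 0 0 with hμ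
  have hdd : μ * f d 1 1 = 1 := by
    have e1 := hdet
    rw [← hf, Matrix.det_fin_two, hd10] at e1
    linear_combination e1
  have hμ0 : μ ≠ 0 := left_ne_zero_of_mul_eq_one hdd
  have hφD : ∀ x, φ ⬝ᵥ x = μ * (φ ⬝ᵥ (D *ᵥ x)) := fun x => by
    have a1 : φ ⬝ᵥ (D *ᵥ e - e) = 0 := by rw [dotProduct_sub, hφe, sub_zero]; exact hd10
    have a2 : φ ⬝ᵥ (D *ᵥ w' - w') = f d 1 1 - 1 := by rw [dotProduct_sub, hφw]; rfl
    rw [show D *ᵥ x = _ from hdec _ hfix x]
    simp only [← hD, dotProduct_add, dotProduct_smul, a1, a2, smul_eq_mul, mul_zero, add_zero]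
    linear_combination (-(φ ⬝ᵥ x)) * hdd
  set z : V := μ • (D *ᵥ e - e) with hz
  have hzψ : ψ ⬝ᵥ z = μ * μ - μ := by
    rw [hz, dotProduct_smul, dotProduct_sub, hψe, smul_eq_mul, mul_sub, mul_one]
    rfl
  -- the rational map
  have hGv : ∀ v, Rt F₀ v → φ ⬝ᵥ v = 0 → Rt F₀ (μ • v + (ψ ⬝ᵥ v) • z) := by
    intro v hv hv'
    obtain ⟨t, ht⟩ := hT v hv hv'
    have hc : ((d * t * d⁻¹ : J) : GL (Fin n) F) ∈ H := hJH (d * t * d⁻¹ : J).2
    have hcm : Mem H (μ • (D *ᵥ v)) φ := by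
      refine ⟨by rw [dotProduct_smul, smul_eq_mul, ← hφD, hv'], _, hc, eq_tv fun x => ?_⟩
      obtain ⟨u, rfl⟩ : ∃ u, x = D *ᵥ u := ⟨(((d⁻¹ : J) : GL (Fin n) F) : Matrix (Fin n) (Fin n) F) *ᵥ x, by
        rw [hD, mulVec_mulVec, ← Units.val_mul, Subgroup.coe_inv, mul_inv_cancel, Units.val_one, one_mulVec]⟩
      rw [mulVec_mulVec, hD, ← Units.val_mul, ← Subgroup.coe_mul, inv_mul_cancel_right, Subgroup.coe_mul,
        Units.val_mul, ← mulVec_mulVec, ht, mulVec_tv, mulVec_add, mulVec_smul, ← hD, smul_smul]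
      congr 2
      rw [hφD u, mul_comm]
    have hR := centre_rat S hφR hφ0 hcm
    rwa [hdec _ hfix v, hv', zero_smul, add_zero, smul_add, smul_comm, ← hD, ← hz] at hR
  have hψGv : ∀ v : V, ψ ⬝ᵥ (μ • v + (ψ ⬝ᵥ v) • z) = μ * μ * (ψ ⬝ᵥ v) := fun v => by
    rw [dotProduct_add, dotProduct_smul, dotProduct_smul, hzψ, smul_eq_mul, smul_eq_mul]; ring
  have hφGv : ∀ v : V, φ ⬝ᵥ v = 0 → φ ⬝ᵥ (μ • v + (ψ ⬝ᵥ v) • z) = 0 := fun v hv => by
    have : φ ⬝ᵥ z = 0 := by
      rw [hz, dotProduct_smul, dotProduct_sub, hφe, sub_zero, smul_eq_mul, ← hφD, hφe]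
    rw [dotProduct_add, dotProduct_smul, dotProduct_smul, hv, this, smul_zero, smul_zero, add_zero]
  have hkφ : φ ⬝ᵥ (Pi.single k 1 : V) = 0 := by simp [hφ, hki.symm]
  have hlφ : φ ⬝ᵥ (Pi.single l 1 : V) = 0 := by simp [hφ, hli.symm]
  by_cases hμF : μ ∈ F₀
  · have hsame : ∀ v, Rt F₀ v → φ ⬝ᵥ v = 0 → (ψ ⬝ᵥ v) • z = (μ * μ - μ) • v := by
      intro v hv hv'
      have h0 := hinj _ (rt_sub (hGv v hv hv') (rt_smul (mul_mem hμF hμF) hv)) (by
        rw [dotProduct_sub, hψGv, dotProduct_smul, smul_eq_mul, sub_self])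
      rw [sub_eq_zero] at h0
      rw [sub_smul, ← h0, add_sub_cancel_left]
    have a1 := congrFun (hsame _ (rt_single k) hkφ) k
    have a2 := congrFun (hsame _ (rt_single l) hlφ) k
    simp [hlk.symm] at a1 a2
    have hne : μ * μ - μ ≠ 0 := fun h0 =>
      hd00 (mul_left_cancel₀ hμ0 (by linear_combination h0 : μ * μ = μ * 1))
    rcases a2 with h' | h'
    · exact hψne l h'
    · exact hne (by rw [← a1, h', mul_zero])
  · obtain ⟨a, ha, b, hb, hquad⟩ : ∃ a ∈ F₀, ∃ b ∈ F₀, μ * μ = a * μ + b := by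
      set v : V := Pi.single k 1 with hv
      set g₁ : V := μ • v + (ψ ⬝ᵥ v) • z with hg₁
      have hg₁R := hGv v (rt_single k) hkφ
      set g₂ : V := μ • g₁ + (ψ ⬝ᵥ g₁) • z with hg₂
      have hg₂R : Rt F₀ g₂ := hGv g₁ hg₁R (hφGv v hkφ)
      have hrel : g₂ = (μ + μ * μ) • g₁ - (μ * μ * μ) • v := by
        rw [hg₂, hψGv]
        simp only [hg₁, smul_add, smul_smul]
        module
      by_cases hcross : ∀ o, o ≠ k → g₁ o = 0
      · have hg : g₁ = g₁ k • v := funext fun o => by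
          rcases eq_or_ne o k with rfl | ho
          · simp [hv]
          · simp [hv, ho, hcross o ho]
        have h2 := hψGv v
        rw [← hg₁, hg, dotProduct_smul, smul_eq_mul] at h2
        have hψv : ψ ⬝ᵥ v ≠ 0 := by simpa [hv] using hψne k
        exact ⟨0, zero_mem _, g₁ k, hg₁R k, by rw [zero_mul, zero_add, ← mul_right_cancel₀ hψv h2]⟩
      · push Not at hcross
        obtain ⟨o, ho, hgo⟩ := hcross
        have eo := congrFun hrel o
        simp [hv, ho] at eo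
        set s := μ + μ * μ with hs
        have hsF : s ∈ F₀ := by
          rw [show s = g₂ o / g₁ o by rw [eo, mul_div_cancel_right₀ _ hgo]]
          exact div_mem (hg₂R o) (hg₁R o)
        have ek := congrFun hrel k
        simp [hv] at ek
        have hm : μ * μ * μ ∈ F₀ := by
          rw [show μ * μ * μ = s * g₁ k - g₂ k by rw [ek]; ring]
          exact sub_mem (mul_mem hsF (hg₁R k)) (hg₂R k)
        exact ⟨-1, neg_mem (one_mem _), s, hsF, by rw [hs]; ring⟩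
    let R : Subring F :=
      { carrier := {c | ∃ u ∈ F₀, ∃ v ∈ F₀, c = u + v * μ}
        one_mem' := ⟨1, one_mem _, 0, zero_mem _, by simp⟩
        zero_mem' := ⟨0, zero_mem _, 0, zero_mem _, by simp⟩
        add_mem' := by
          rintro _ _ ⟨u, hu, v, hv, rfl⟩ ⟨u', hu', v', hv', rfl⟩
          exact ⟨u + u', add_mem hu hu', v + v', add_mem hv hv', by ring⟩
        neg_mem' := by
          rintro _ ⟨u, hu, v, hv, rfl⟩
          exact ⟨-u, neg_mem hu, -v, neg_mem hv, by ring⟩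
        mul_mem' := by
          rintro _ _ ⟨u, hu, v, hv, rfl⟩ ⟨u', hu', v', hv', rfl⟩
          exact ⟨u * u' + v * v' * b, add_mem (mul_mem hu hu') (mul_mem (mul_mem hv hv') hb),
            u * v' + v * u' + v * v' * a,
            add_mem (add_mem (mul_mem hu hv') (mul_mem hv hu')) (mul_mem (mul_mem hv hv') ha),
            by linear_combination (v * v') * hquad⟩ }
    have htop := (S.prime R fun c hc => ⟨c, hc, 0, zero_mem _, by simp⟩).resolve_right fun h0 =>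
      hμF (h0 μ ⟨0, zero_mem _, 1, one_mem _, by simp⟩)
    have hle : Nat.card F ≤ Nat.card F₀ * Nat.card F₀ := by
      rw [← Nat.card_prod]
      refine Nat.card_le_card_of_surjective (fun uv : F₀ × F₀ => (uv.1 : F) + uv.2 * μ) fun c => ?_
      obtain ⟨u, hu, v, hv, rfl⟩ : c ∈ R := htop ▸ Subring.mem_top c
      exact ⟨(⟨u, hu⟩, ⟨v, hv⟩), rfl⟩
    let vec3 : (F₀ × F₀) × F₀ → V := fun ab => vec2 ab.1 + (ab.2 : F) • Pi.single m 1
    have hge : Nat.card F₀ * Nat.card F₀ * Nat.card F₀ ≤ Nat.card F := by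
      rw [← Nat.card_prod, ← Nat.card_prod]
      refine Nat.card_le_card_of_injective (fun ab => ψ ⬝ᵥ vec3 ab) fun x x' hxx => ?_
      have hR' : ∀ c, Rt F₀ (vec3 c) := fun c => rt_add (hv2 c.1).1 (rt_smul c.2.2 (rt_single m))
      have h0 := sub_eq_zero.1 (hinj _ (rt_sub (hR' x) (hR' x')) (by rw [dotProduct_sub]; exact sub_eq_zero.2 hxx))
      have ek := congrFun h0 k
      have el := congrFun h0 l
      have em := congrFun h0 m
      simp [vec3, vec2, hlk.symm, hmk.symm] at ek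
      simp [vec3, vec2, hlk, hml.symm] at el
      simp [vec3, vec2, hmk, hml] at em
      exact Prod.ext (Prod.ext ek el) em
    have h1 : 2 ≤ Nat.card F₀ := (Fact.out : p.Prime).two_le.trans hq₀
    have := hge.trans hle
    nlinarith

/-- Every transvection of `H` has all entries rational. -/
theorem entries_rat [Fintype F] {x φ : V} (h : Mem H x φ) (a b : Fin n) : x a * φ b ∈ F₀ := by
  classical
  by_cases hx : x = 0
  · simp [hx, zero_mem]
  by_cases hφ : φ = 0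
  · simp [hφ, zero_mem]
  obtain ⟨v, hv, hφv, hv0⟩ : ∃ v, Rt F₀ v ∧ φ ⬝ᵥ v = 0 ∧ v ≠ 0 := by
    by_contra hall
    push Not at hall
    exact no_generic S h hx hall
  obtain ⟨i, hi⟩ := Function.ne_iff.1 hv0
  simp only [Pi.zero_apply] at hi
  by_cases hall : ∀ k, x k = (v k / v i) * x i
  · set c := x i / v i with hc
    have hxv : x = c • v := funext fun k => by rw [hall k, hc, Pi.smul_apply, smul_eq_mul]; field_simp
    have hc0 : c ≠ 0 := fun h0 => hx (by rw [hxv, h0, zero_smul])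
    have hR := axis_rat S hv hv0 (mem_smul_right (hxv ▸ h) hc0) b
    rw [Pi.smul_apply, smul_eq_mul] at hR
    rw [hxv, Pi.smul_apply, smul_eq_mul, show c * v a * φ b = v a * (c * φ b) by ring]
    exact mul_mem (hv a) hR
  · push Not at hall
    obtain ⟨k, hk⟩ := hall
    set χ : V := Pi.single k 1 - (v k / v i) • Pi.single i 1 with hχ
    have hχR : Rt F₀ χ := rt_sub (rt_single k) (rt_smul (div_mem (hv k) (hv i)) (rt_single i))
    set c := χ ⬝ᵥ x with hc
    have hc0 : c ≠ 0 := by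
      rw [hc, hχ]
      simpa [sub_dotProduct] using sub_ne_zero.2 hk
    have h1 := comm_mem (S.rat v χ hv hχR (by simp [hχ, sub_dotProduct, div_mul_cancel₀ _ hi])) h hφv
    have hR := axis_rat S hv hv0 (mem_smul_right h1 hc0)
    have h2 : Mem H (c⁻¹ • x) (c • φ) := mem_congr
      (by rw [smul_vecMulVec, vecMulVec_smul, smul_smul, inv_mul_cancel₀ hc0, one_smul])
      (by rw [smul_dotProduct, dotProduct_smul, h.1, smul_zero, smul_zero]) h
    have hR2 := centre_rat S hR (smul_ne_zero hc0 hφ) h2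
    have := mul_mem (hR2 a) (hR b)
    simp only [Pi.smul_apply, smul_eq_mul] at this
    rwa [show c⁻¹ * x a * (c * φ b) = x a * φ b by field_simp] at this

end CfsgLib.SubMax
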